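import Cfsg.Agent.H849.OZ.TFive
import Cfsg.Agent.H733.OZ.Good
import Cfsg.Agent.H604.OZ.Basic

/-!
# S4842 for the Baby Monster: the sieve (helper619)

A simple group of order `|B|` with isolated primes `31` and `47`, an element of order `19` with centralizer of order `38`
and, for the other primes `r`, two `r`-singular elements of different orders has no irreducible character vanishing on
exactly one class.
-/

set_option autoImplicit false
set_option maxRecDepth 100000

open Subgroup Cfsg Cfsg.Agent.H732.VZ Cfsg.Agent.H604.OZ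

namespace Cfsg.Agent.H619.OZ.B

universe u

/-- the order of the Baby Monster -/
abbrev NB : ℕ := 4154781481226426191177580544000000

theorem NB_eq : NB = 2 ^ 41 * (3 ^ 13 * (5 ^ 6 * (7 ^ 2 * (31 * (47 * (11 * (13 * (17 * (19 * 23))))))))) := by
  norm_num [NB]

/-- the facts about the group -/
structure Facts (G : Type u) [Group G] : Prop where
  z47 : ∃ z : G, orderOf z = 47 ∧ Nat.card (centralizer ({z} : Set G)) = 47
  z31 : ∃ z : G, orderOf z = 31 ∧ Nat.card (centralizer ({z} : Set G)) = 31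
  z19 : ∃ z : G, orderOf z = 19 ∧ Nat.card (centralizer ({z} : Set G)) = 38
  two : ∀ r ∈ ([2, 3, 5, 7, 11, 13, 17, 23] : List ℕ), ∃ g g' : G, r ∣ orderOf g ∧ r ∣ orderOf g' ∧
    orderOf g ≠ orderOf g'

/-- `d` is `± 1` modulo `p` -/
def pm (p d : ℕ) : Bool := Nat.beq (d % p) 1 || Nat.beq (d % p) (p - 1)

/-- the test for a degree prime to `31 · 47` -/
def tst1 (d : ℕ) : Bool := !(pm 19 d && (pm 31 d && (pm 47 d && (Nat.ble 2 d && Nat.ble (4 * (d * d - 1)) NB))))

/-- the test for `31` -/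
def tst31 (d : ℕ) : Bool :=
  !(pm 47 d && (pm 19 d && (Nat.beq ((d * d - 1) % 11) 0 && (Nat.beq ((d * d - 1) % 13) 0 &&
    (Nat.beq ((d * d - 1) % 17) 0 && (Nat.beq ((d * d - 1) % 23) 0 && (Nat.ble 2 d && Nat.ble (4 * (d * d - 1)) NB)))))))

/-- the test for `47` -/
def tst47 (d : ℕ) : Bool :=
  !(pm 31 d && (pm 19 d && (Nat.beq ((d * d - 1) % 11) 0 && (Nat.beq ((d * d - 1) % 13) 0 &&
    (Nat.beq ((d * d - 1) % 17) 0 && (Nat.beq ((d * d - 1) % 23) 0 && (Nat.ble 2 d && Nat.ble (4 * (d * d - 1)) NB)))))))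

theorem all1 : ∀ a < 41, ∀ b < 13, ∀ c < 6, ∀ e < 2, tst1 (2 ^ a * (3 ^ b * (5 ^ c * 7 ^ e))) = true := by
  decide +kernel

theorem all31 : ∀ a < 41, ∀ b < 13, ∀ c < 6, ∀ e < 2, tst31 (2 ^ a * (3 ^ b * (5 ^ c * (7 ^ e * 31)))) = true := by
  decide +kernel

theorem all47 : ∀ a < 41, ∀ b < 13, ∀ c < 6, ∀ e < 2, tst47 (2 ^ a * (3 ^ b * (5 ^ c * (7 ^ e * 47)))) = true := by
  decide +kernel

theorem pm_of {p d : ℕ} (h : d % p = 1 ∨ d % p = p - 1) : pm p d = true := by
  unfold pm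
  rcases h with h | h
  · rw [h]; simp
  · rw [h]; simp

theorem not_dvd_of_pm {p d : ℕ} (hp : 2 < p) (h : d % p = 1 ∨ d % p = p - 1) : ¬ p ∣ d := by
  intro hd
  rw [Nat.mod_eq_zero_of_dvd hd] at h
  omega

/-- the shape of a divisor -/
theorem shape {d s : ℕ} (hd : d ∣ 2 ^ 41 * (3 ^ 13 * (5 ^ 6 * (7 ^ 2 * s)))) (h2 : ¬ 2 ^ 41 ∣ d) (h3 : ¬ 3 ^ 13 ∣ d)
    (h5 : ¬ 5 ^ 6 ∣ d) (h7 : ¬ 7 ^ 2 ∣ d) :
    ∃ a < 41, ∃ b < 13, ∃ c < 6, ∃ e < 2, ∃ t, t ∣ s ∧ d = 2 ^ a * (3 ^ b * (5 ^ c * (7 ^ e * t))) := by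
  obtain ⟨x2, y2, hx2, hy2, rfl⟩ := Nat.dvd_mul.1 hd
  obtain ⟨x3, y3, hx3, hy3, rfl⟩ := Nat.dvd_mul.1 hy2
  obtain ⟨x5, y5, hx5, hy5, rfl⟩ := Nat.dvd_mul.1 hy3
  obtain ⟨x7, t, hx7, ht, rfl⟩ := Nat.dvd_mul.1 hy5
  obtain ⟨a, ha, rfl⟩ := (Nat.dvd_prime_pow Nat.prime_two).1 hx2
  obtain ⟨b, hb, rfl⟩ := (Nat.dvd_prime_pow Nat.prime_three).1 hx3
  obtain ⟨c, hc, rfl⟩ := (Nat.dvd_prime_pow Nat.prime_five).1 hx5
  obtain ⟨e, he, rfl⟩ := (Nat.dvd_prime_pow (by norm_num : Nat.Prime 7)).1 hx7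
  refine ⟨a, ?_, b, ?_, c, ?_, e, ?_, t, ht, rfl⟩
  · by_contra hlt
    obtain rfl : a = 41 := by omega
    exact h2 (Dvd.intro _ rfl)
  · by_contra hlt
    obtain rfl : b = 13 := by omega
    exact h3 ((Dvd.intro _ rfl : 3 ^ 13 ∣ 3 ^ 13 * _).mul_left _)
  · by_contra hlt
    obtain rfl : c = 6 := by omega
    exact h5 (((Dvd.intro _ rfl : 5 ^ 6 ∣ 5 ^ 6 * _).mul_left _).mul_left _)
  · by_contra hlt
    obtain rfl : e = 2 := by omega
    exact h7 ((((Dvd.intro _ rfl : 7 ^ 2 ∣ 7 ^ 2 * _).mul_left _).mul_left _).mul_left _)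

variable {G : Type u} [Group G] [Finite G] [IsSimpleGroup G]

theorem none (hN : Nat.card G = NB) (F : Facts G) (χ : IrrCharacter G) (x : G) (h : One χ x) : False := by
  set d := charDegree (χ : G → ℂ) with hd
  have hdN : d ∣ NB := by rw [← hN]; exact deg_dvd χ
  have hd1 : 1 < d := one_lt_deg h
  have h4 : 4 ≤ Nat.card (centralizer ({x} : Set G)) :=
    four_le_cent h (by rw [hN]; norm_num [NB]) (by rw [hN]; norm_num [NB])
  have hT2 : 4 * (d * d - 1) ≤ NB := by
    have h1 := cent_mul_le h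
    rw [hN, ← hd, pow_two] at h1
    exact (Nat.mul_le_mul_right _ h4).trans h1
  -- T3
  have T3 : ∀ r n : ℕ, r.Prime → r ∈ ([2, 3, 5, 7, 11, 13, 17, 23] : List ℕ) → r ^ n ∣ NB → ¬ r ^ (n + 1) ∣ NB →
      ¬ r ^ n ∣ d := by
    intro r n hr hm h1 h2
    obtain ⟨g, g', hg, hg', hne⟩ := F.two r hm
    exact not_dvd_deg' h hr (by rw [hN]; exact h1) (by rw [hN]; exact h2) hg hg' hne
  have n2 := T3 2 41 (by norm_num) (by simp) (by norm_num [NB]) (by norm_num [NB])
  have n3 := T3 3 13 (by norm_num) (by simp) (by norm_num [NB]) (by norm_num [NB])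
  have n5 := T3 5 6 (by norm_num) (by simp) (by norm_num [NB]) (by norm_num [NB])
  have n7 := T3 7 2 (by norm_num) (by simp) (by norm_num [NB]) (by norm_num [NB])
  have n11 : ¬ 11 ∣ d := by simpa using T3 11 1 (by norm_num) (by simp) (by norm_num [NB]) (by norm_num [NB])
  have n13 : ¬ 13 ∣ d := by simpa using T3 13 1 (by norm_num) (by simp) (by norm_num [NB]) (by norm_num [NB])
  have n17 : ¬ 17 ∣ d := by simpa using T3 17 1 (by norm_num) (by simp) (by norm_num [NB]) (by norm_num [NB])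
  have n23 : ¬ 23 ∣ d := by simpa using T3 23 1 (by norm_num) (by simp) (by norm_num [NB]) (by norm_num [NB])
  -- the isolated primes
  obtain ⟨z47, hz47, hc47⟩ := F.z47
  obtain ⟨z31, hz31, hc31⟩ := F.z31
  obtain ⟨z19, hz19, hc19⟩ := F.z19
  have i47 := H849.OZ.iso (by norm_num : Nat.Prime 47) (by norm_num) (by rw [hN]; norm_num [NB]) (by rw [hN]; norm_num [NB])
    hz47 hc47 h h4
  have i31 := H849.OZ.iso (by norm_num : Nat.Prime 31) (by norm_num) (by rw [hN]; norm_num [NB]) (by rw [hN]; norm_num [NB])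
    hz31 hc31 h h4
  rw [← hd] at i47 i31
  have i19 : d % 19 = 1 ∨ d % 19 = 19 - 1 := by
    refine H849.OZ.mod_of_two (by norm_num : Nat.Prime 19) (by norm_num) (by rw [hN]; norm_num [NB])
      (by rw [hN]; norm_num [NB]) hz19 (by rw [hc19]) h ?_ h4
    by_cases hc : Nat.card (centralizer ({x} : Set G)) ≤ 19
    · exact H849.OZ.not_dvd_of_le (by norm_num) (by rw [hN]; norm_num [NB]) hz19 (by rw [hc19]; norm_num) hc
    · exact H733.OZ.not_dvd_orderOf h (r := 19) (n := 1) (by norm_num) (by rw [hN]; norm_num [NB])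
        (by rw [hN]; norm_num [NB]) (by rw [pow_one]; exact not_le.1 hc)
  have n19 : ¬ 19 ∣ d := not_dvd_of_pm (by norm_num) i19
  -- the divisor
  have hdv : d ∣ 2 ^ 41 * (3 ^ 13 * (5 ^ 6 * (7 ^ 2 * (31 * 47)))) := by
    have e : NB = (11 * (13 * (17 * (19 * 23)))) * (2 ^ 41 * (3 ^ 13 * (5 ^ 6 * (7 ^ 2 * (31 * 47))))) := by
      norm_num [NB]
    rw [e] at hdN
    have k : ∀ {p : ℕ}, p.Prime → ¬ p ∣ d → Nat.Coprime d p := fun {p} hp hpc =>
      ((Nat.Prime.coprime_iff_not_dvd hp).2 hpc).symm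
    refine (Nat.Coprime.dvd_of_dvd_mul_left ?_ hdN)
    refine Nat.Coprime.mul_right (k (by norm_num) n11) (Nat.Coprime.mul_right (k (by norm_num) n13)
      (Nat.Coprime.mul_right (k (by norm_num) n17) (Nat.Coprime.mul_right (k (by norm_num) n19) (k (by norm_num) n23))))
  -- T4
  have T4 : ∀ r : ℕ, r.Prime → r ∣ NB → ¬ r ^ 2 ∣ NB → r < Nat.card (centralizer ({x} : Set G)) →
      Nat.beq ((d * d - 1) % r) 0 = true := by
    intro r hr h1 h2 hc
    have h3 := H733.OZ.pow_dvd h hr (n := 1) (by rw [hN, pow_one]; exact h1) (by rw [hN]; exact h2)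
      (by rw [pow_one]; exact hc)
    rw [pow_one, ← hd, pow_two] at h3
    rw [Nat.mod_eq_zero_of_dvd h3]
    rfl
  obtain ⟨a, ha, b, hb, c, hc, e, he, t, ht, hdt⟩ := shape hdv n2 n3 n5 n7
  have hb2 : Nat.ble 2 d = true := Nat.ble_eq_true_of_le hd1
  have hbN : Nat.ble (4 * (d * d - 1)) NB = true := Nat.ble_eq_true_of_le hT2
  have t19 := pm_of i19
  -- the divisors of `31 * 47`
  have hts : t = 1 ∨ t = 31 ∨ t = 47 ∨ t = 31 * 47 := by
    obtain ⟨u, v, hu, hv, rfl⟩ := Nat.dvd_mul.1 ht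
    rcases (Nat.dvd_prime (by norm_num : Nat.Prime 31)).1 hu with rfl | rfl <;>
      rcases (Nat.dvd_prime (by norm_num : Nat.Prime 47)).1 hv with rfl | rfl <;> simp
  have td : t ∣ d := by
    rw [hdt]
    exact (((dvd_refl t).mul_left _).mul_left _).mul_left _ |>.mul_left _
  by_cases k31 : 31 ∣ d
  · -- `x` of order 31
    have j31 : orderOf x = 31 ∧ Nat.card (centralizer ({x} : Set G)) = 31 := by
      rcases i31 with h1 | h1 | ⟨-, h1, h2, -⟩
      · exact absurd k31 (not_dvd_of_pm (by norm_num) (Or.inl h1))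
      · exact absurd k31 (not_dvd_of_pm (by norm_num) (Or.inr h1))
      · exact ⟨h1, h2⟩
    have j47 : d % 47 = 1 ∨ d % 47 = 47 - 1 := by
      rcases i47 with h1 | h1 | ⟨-, h1, -, -⟩
      · exact Or.inl h1
      · exact Or.inr h1
      · rw [j31.1] at h1
        norm_num at h1
    have k47 : ¬ 47 ∣ d := not_dvd_of_pm (by norm_num) j47
    have ht31 : t = 31 := by
      rcases hts with h1 | h1 | h1 | h1
      · exfalso
        subst h1
        rw [hdt, mul_one] at k31
        have k : ∀ {p q n : ℕ}, p.Prime → q.Prime → p ≠ q → ¬ p ∣ q ^ n := fun {p q n} hp hq hne hh =>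
          hne ((Nat.prime_dvd_prime_iff_eq hp hq).1 (hp.dvd_of_dvd_pow hh))
        rcases (Nat.Prime.dvd_mul (by norm_num)).1 k31 with h1 | h1
        · exact k (by norm_num) (by norm_num) (by norm_num) h1
        rcases (Nat.Prime.dvd_mul (by norm_num)).1 h1 with h1 | h1
        · exact k (by norm_num) (by norm_num) (by norm_num) h1
        rcases (Nat.Prime.dvd_mul (by norm_num)).1 h1 with h1 | h1
        · exact k (by norm_num) (by norm_num) (by norm_num) h1
        · exact k (by norm_num) (by norm_num) (by norm_num) h1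
      · exact h1
      · exact absurd (h1 ▸ td) k47
      · exact absurd ((Dvd.intro_left 31 rfl : 47 ∣ 31 * 47).trans (h1 ▸ td)) k47
    subst ht31
    have h1 := all31 a ha b hb c hc e he
    rw [← hdt] at h1
    unfold tst31 at h1
    rw [pm_of j47, t19, T4 11 (by norm_num) (by norm_num [NB]) (by norm_num [NB]) (by rw [j31.2]; norm_num),
      T4 13 (by norm_num) (by norm_num [NB]) (by norm_num [NB]) (by rw [j31.2]; norm_num),
      T4 17 (by norm_num) (by norm_num [NB]) (by norm_num [NB]) (by rw [j31.2]; norm_num),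
      T4 23 (by norm_num) (by norm_num [NB]) (by norm_num [NB]) (by rw [j31.2]; norm_num), hb2, hbN] at h1
    exact absurd h1 (by decide)
  · have j31 : d % 31 = 1 ∨ d % 31 = 31 - 1 := by
      rcases i31 with h1 | h1 | ⟨h1, -⟩
      · exact Or.inl h1
      · exact Or.inr h1
      · exact absurd h1 k31
    by_cases k47 : 47 ∣ d
    · have j47 : Nat.card (centralizer ({x} : Set G)) = 47 := by
        rcases i47 with h1 | h1 | ⟨-, -, h2, -⟩
        · exact absurd k47 (not_dvd_of_pm (by norm_num) (Or.inl h1))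
        · exact absurd k47 (not_dvd_of_pm (by norm_num) (Or.inr h1))
        · exact h2
      have ht47 : t = 47 := by
        rcases hts with h1 | h1 | h1 | h1
        · exfalso
          subst h1
          rw [hdt, mul_one] at k47
          have k : ∀ {p q n : ℕ}, p.Prime → q.Prime → p ≠ q → ¬ p ∣ q ^ n := fun {p q n} hp hq hne hh =>
            hne ((Nat.prime_dvd_prime_iff_eq hp hq).1 (hp.dvd_of_dvd_pow hh))
          rcases (Nat.Prime.dvd_mul (by norm_num)).1 k47 with h1 | h1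
          · exact k (by norm_num) (by norm_num) (by norm_num) h1
          rcases (Nat.Prime.dvd_mul (by norm_num)).1 h1 with h1 | h1
          · exact k (by norm_num) (by norm_num) (by norm_num) h1
          rcases (Nat.Prime.dvd_mul (by norm_num)).1 h1 with h1 | h1
          · exact k (by norm_num) (by norm_num) (by norm_num) h1
          · exact k (by norm_num) (by norm_num) (by norm_num) h1
        · exact absurd (h1 ▸ td) k31
        · exact h1
        · exact absurd ((Dvd.intro _ rfl : 31 ∣ 31 * 47).trans (h1 ▸ td)) k31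
      subst ht47
      have h1 := all47 a ha b hb c hc e he
      rw [← hdt] at h1
      unfold tst47 at h1
      rw [pm_of j31, t19, T4 11 (by norm_num) (by norm_num [NB]) (by norm_num [NB]) (by rw [j47]; norm_num),
        T4 13 (by norm_num) (by norm_num [NB]) (by norm_num [NB]) (by rw [j47]; norm_num),
        T4 17 (by norm_num) (by norm_num [NB]) (by norm_num [NB]) (by rw [j47]; norm_num),
        T4 23 (by norm_num) (by norm_num [NB]) (by norm_num [NB]) (by rw [j47]; norm_num), hb2, hbN] at h1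
      exact absurd h1 (by decide)
    · have j47 : d % 47 = 1 ∨ d % 47 = 47 - 1 := by
        rcases i47 with h1 | h1 | ⟨h1, -⟩
        · exact Or.inl h1
        · exact Or.inr h1
        · exact absurd h1 k47
      have ht1 : t = 1 := by
        rcases hts with h1 | h1 | h1 | h1
        · exact h1
        · exact absurd (h1 ▸ td) k31
        · exact absurd (h1 ▸ td) k47
        · exact absurd ((Dvd.intro _ rfl : 31 ∣ 31 * 47).trans (h1 ▸ td)) k31
      subst ht1
      have h1 := all1 a ha b hb c hc e he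
      rw [mul_one] at hdt
      rw [← hdt] at h1
      unfold tst1 at h1
      rw [t19, pm_of j31, pm_of j47, hb2, hbN] at h1
      exact absurd h1 (by decide)

/-- **The row, abstractly.** -/
theorem row_abs (hN : Nat.card G = NB) (F : Facts G) : H730.OZ.Row G := row_of (none hN F)

end Cfsg.Agent.H619.OZ.B
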